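import Mathlib
import Cfsg.Agent.TcData.Suz.I22880.Tab

set_option autoImplicit false
set_option maxRecDepth 100000
set_option linter.all false

namespace Cfsg.Agent.TcData.Suz.I22880

open Cfsg.Spor Cfsg.Agent.Lib.TcFacts Cfsg.Agent.Lib.TcBits Cfsg.Agent.Lib.TcPres Cfsg.Spor.Suz Cfsg.Agent.TcData.Suz

theorem b99 : Block F al 25344 25600 254 :=
  block_of_check (k := 8) rfl (by decide +kernel)

theorem b100 : Block F al 25600 25856 239 :=
  block_of_check (k := 8) rfl (by decide +kernel)

theorem b101 : Block F al 25856 26112 254 :=
  block_of_check (k := 8) rfl (by decide +kernel)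

theorem b102 : Block F al 26112 26368 240 :=
  block_of_check (k := 8) rfl (by decide +kernel)

theorem b103 : Block F al 26368 26624 256 :=
  block_of_check (k := 8) rfl (by decide +kernel)

theorem b104 : Block F al 26624 26880 254 :=
  block_of_check (k := 8) rfl (by decide +kernel)

theorem b105 : Block F al 26880 27136 256 :=
  block_of_check (k := 8) rfl (by decide +kernel)

theorem b106 : Block F al 27136 27392 253 :=
  block_of_check (k := 8) rfl (by decide +kernel)

theorem b107 : Block F al 27392 27648 247 :=
  block_of_check (k := 8) rfl (by decide +kernel)

theorem b108 : Block F al 27648 27904 252 :=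
  block_of_check (k := 8) rfl (by decide +kernel)

theorem b109 : Block F al 27904 28160 256 :=
  block_of_check (k := 8) rfl (by decide +kernel)

theorem b110 : Block F al 28160 28416 256 :=
  block_of_check (k := 8) rfl (by decide +kernel)

theorem b111 : Block F al 28416 28672 256 :=
  block_of_check (k := 8) rfl (by decide +kernel)

theorem b112 : Block F al 28672 28928 256 :=
  block_of_check (k := 8) rfl (by decide +kernel)

theorem b113 : Block F al 28928 29184 256 :=
  block_of_check (k := 8) rfl (by decide +kernel)

theorem b114 : Block F al 29184 29440 256 :=
  block_of_check (k := 8) rfl (by decide +kernel)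

theorem b115 : Block F al 29440 29696 254 :=
  block_of_check (k := 8) rfl (by decide +kernel)

theorem b116 : Block F al 29696 29952 256 :=
  block_of_check (k := 8) rfl (by decide +kernel)

theorem b117 : Block F al 29952 30208 254 :=
  block_of_check (k := 8) rfl (by decide +kernel)

theorem b118 : Block F al 30208 30464 256 :=
  block_of_check (k := 8) rfl (by decide +kernel)

theorem b119 : Block F al 30464 30720 256 :=
  block_of_check (k := 8) rfl (by decide +kernel)

theorem b120 : Block F al 30720 30976 256 :=
  block_of_check (k := 8) rfl (by decide +kernel)

theorem b121 : Block F al 30976 31232 256 :=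
  block_of_check (k := 8) rfl (by decide +kernel)

theorem b122 : Block F al 31232 31488 67 :=
  block_of_check (k := 8) rfl (by decide +kernel)

end Cfsg.Agent.TcData.Suz.I22880
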