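import Mathlib
import Cfsg.Agent.TcData.Suz.I22880.Pr_a
import Cfsg.Agent.TcData.Suz.I22880.Pr_b
import Cfsg.Agent.TcData.Suz.I22880.Pr_c
import Cfsg.Agent.TcData.Suz.I22880.Pr_d
import Cfsg.Agent.TcData.Suz.I22880.Pr_e
import Cfsg.Agent.TcData.Suz.I22880.Pr_f
import Cfsg.Agent.TcData.Suz.I22880.Pr_g
import Cfsg.Agent.TcData.Suz.I22880.Tab

set_option autoImplicit false
set_option maxRecDepth 100000
set_option linter.all false

namespace Cfsg.Agent.TcData.Suz.I22880

open Cfsg.Spor Cfsg.Agent.Lib.TcFacts Cfsg.Agent.Lib.TcBits Cfsg.Agent.Lib.TcPres Cfsg.Spor.Suz Cfsg.Agent.TcData.Suz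

/-- The programs of the generators. -/
noncomputable def pr : Gen → List (ℕ × ℕ)
  | .a => pr_a
  | .b => pr_b
  | .c => pr_c
  | .d => pr_d
  | .e => pr_e
  | .f => pr_f
  | .g => pr_g

theorem hv : ∀ x, validProg (2 ^ 15) (pr x) = true := by
  intro x; cases x <;> decide +kernel

/-- The check of a relator on a slice. -/
noncomputable def chkW (r : FreeGroup Gen) (j : ℕ) : Bool :=
  Nat.beq (wordApply (sgnProg pr) r.toWord (slice 15 j)) (slice 15 j)

theorem of_chkW {r : FreeGroup Gen} (h : ∀ j, j < 15 → chkW r j = true) :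
    ∀ j, j < 15 → wordApply (sgnProg pr) r.toWord (slice 15 j) = slice 15 j :=
  fun j hj => Nat.eq_of_beq_eq_true (h j hj)

end Cfsg.Agent.TcData.Suz.I22880
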